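import Cfsg.Agent.Lib.Helper6.Sz8.Defs

/-! # Generic lemmas on cocycle extensions -/

set_option autoImplicit false

namespace Cfsg.Agent.Lib.Helper6.Sz8

open scoped commutatorElement
open Cfsg.Agent.Lib.Helper37.CentralExt

theorem CE.proj_surjective {G A : Type*} [Group G] [AddCommGroup A] (c : G → G → A) [IsCoc c] :
    Function.Surjective (CE.proj c) := fun g => ⟨⟨g, 0⟩, rfl⟩

theorem CE.ker_le_center {G A : Type*} [Group G] [AddCommGroup A] (c : G → G → A) [h : IsCoc c] :
    (CE.proj c).ker ≤ Subgroup.center (CE G A c) := by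
  intro x hx
  have hx1 : x.g = 1 := hx
  rw [Subgroup.mem_center_iff]
  intro y
  ext
  · simp [hx1]
  · simp only [CE.mul_a, hx1, h.one_left, h.one_right]
    abel

theorem CE.commutator_eq {G A : Type*} [Group G] [AddCommGroup A] (c : G → G → A) [hc : IsCoc c]
    (x y : G) (h : x * y = y * x) :
    ⁅(⟨x, 0⟩ : CE G A c), (⟨y, 0⟩ : CE G A c)⁆ = ⟨1, c x y - c y x⟩ := by
  rw [commutatorElement_def, mul_inv_eq_iff_eq_mul, mul_inv_eq_iff_eq_mul]
  ext
  · simp [h]
  · simp only [CE.mul_a, CE.mul_g, one_mul, hc.one_left]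
    abel

theorem CE.finite {G A : Type*} [Group G] [AddCommGroup A] (c : G → G → A) [Finite G] [Finite A] :
    Finite (CE G A c) :=
  Finite.of_injective (fun x : CE G A c => (x.g, x.a)) (by
    intro x y h
    simp only [Prod.mk.injEq] at h
    exact CE.ext h.1 h.2)

/-- the commutator subgroup of a central extension of a perfect group is a stem extension -/
theorem stem_of_central {Γ G : Type*} [Group Γ] [Group G] (σ : Γ →* G) (hs : Function.Surjective σ)
    (hc : σ.ker ≤ Subgroup.center Γ) (hG : commutator G = ⊤) :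
    Cfsg.IsStemExtension (σ.comp (commutator Γ).subtype) := by
  have hmap : (commutator Γ).map σ = ⊤ := by
    rw [commutator_def, Subgroup.map_commutator, ← MonoidHom.range_eq_map,
      MonoidHom.range_eq_top.2 hs, ← commutator_def, hG]
  have hs' : ∀ g : G, ∃ x ∈ commutator Γ, σ x = g := by
    intro g
    have : g ∈ (commutator Γ).map σ := by rw [hmap]; exact Subgroup.mem_top _
    exact this
  refine ⟨?_, ?_, ?_⟩
  · intro g
    obtain ⟨x, hx, rfl⟩ := hs' g
    exact ⟨⟨x, hx⟩, rfl⟩
  · intro x hx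
    rw [Subgroup.mem_center_iff]
    intro y
    apply Subtype.ext
    have : (x : Γ) ∈ σ.ker := hx
    exact Subgroup.mem_center_iff.1 (hc this) y
  · -- the commutator subgroup is perfect
    have key : ⁅(⊤ : Subgroup Γ), ⊤⁆ ≤ (commutator ↥(commutator Γ)).map (commutator Γ).subtype := by
      rw [Subgroup.commutator_le]
      intro u _ v _
      obtain ⟨u', hu', hu⟩ := hs' (σ u)
      obtain ⟨v', hv', hv⟩ := hs' (σ v)
      rw [comm_congr σ hc hu.symm hv.symm]
      refine ⟨⁅(⟨u', hu'⟩ : ↥(commutator Γ)), ⟨v', hv'⟩⁆, ?_, rfl⟩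
      exact Subgroup.commutator_mem_commutator (Subgroup.mem_top _) (Subgroup.mem_top _)
    intro x _
    obtain ⟨y, hy, hxy⟩ := key x.2
    have : y = x := Subtype.ext hxy
    rwa [← this]

end Cfsg.Agent.Lib.Helper6.Sz8
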