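import Cfsg.Agent.Lib.Helper37.Suzuki.Multiplier2
import Cfsg.Agent.Lib.Helper37.Suzuki.SzMap
import Cfsg.Agent.Lib.Helper37.Suzuki.LieModel
import Cfsg.Prelude.Def_KGroupFacts

/-!
# The Schur multiplier of `Sz(8)`: definitions

* `IsCoc c`: `c` is a normalised 2-cocycle with values in an additive abelian group (trivial action);
* `CE G A c`: the central extension of `G` by `A` defined by `c`;
* `indC b f`: the cocycle coinduced from a subgroup (transfer of cocycles);
* `Phi`, `fQ`: the explicit cocycle on the Sylow 2-subgroup `Q` of `Sz(8)`;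
* `rep`, `sec`, `bQ`, `cG`: the transversal of `Q` and the coinduced cocycle on `Sz(8)`.
-/

set_option autoImplicit false

namespace Cfsg.Agent.Lib.Helper6.Sz8

open Cfsg.Agent.Lib.Helper37.Suz

/-- normalised 2-cocycles (trivial action) -/
class IsCoc {G A : Type*} [Group G] [AddCommGroup A] (c : G → G → A) : Prop where
  assoc : ∀ x y z, c x y + c (x * y) z = c y z + c x (y * z)
  one_left : ∀ x, c 1 x = 0
  one_right : ∀ x, c x 1 = 0

/-- the underlying type of the central extension defined by a cocycle -/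
@[ext] structure CE (G A : Type*) [Group G] [AddCommGroup A] (c : G → G → A) where
  g : G
  a : A

namespace CE

variable {G A : Type*} [Group G] [AddCommGroup A] (c : G → G → A)

instance : Mul (CE G A c) := ⟨fun x y => ⟨x.g * y.g, x.a + y.a + c x.g y.g⟩⟩
instance : One (CE G A c) := ⟨⟨1, 0⟩⟩
instance : Inv (CE G A c) := ⟨fun x => ⟨x.g⁻¹, -x.a - c x.g⁻¹ x.g⟩⟩

variable {c}

@[simp] theorem mul_g (x y : CE G A c) : (x * y).g = x.g * y.g := rfl
@[simp] theorem mul_a (x y : CE G A c) : (x * y).a = x.a + y.a + c x.g y.g := rfl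
@[simp] theorem one_g : (1 : CE G A c).g = 1 := rfl
@[simp] theorem one_a : (1 : CE G A c).a = 0 := rfl
@[simp] theorem inv_g (x : CE G A c) : (x⁻¹).g = x.g⁻¹ := rfl
@[simp] theorem inv_a (x : CE G A c) : (x⁻¹).a = -x.a - c x.g⁻¹ x.g := rfl

instance [h : IsCoc c] : Group (CE G A c) :=
  Group.ofLeftAxioms
    (by
      intro x y z
      ext
      · simp [mul_assoc]
      · have := h.assoc x.g y.g z.g
        simp only [mul_a, mul_g]
        calc x.a + y.a + c x.g y.g + z.a + c (x.g * y.g) z.g
            = x.a + y.a + z.a + (c x.g y.g + c (x.g * y.g) z.g) := by abel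
          _ = x.a + (y.a + z.a + c y.g z.g) + c x.g (y.g * z.g) := by rw [this]; abel)
    (by
      intro x
      ext
      · simp
      · simp [h.one_left])
    (by
      intro x
      ext
      · simp
      · simp only [mul_a, inv_a, inv_g, one_a]
        abel)

/-- the projection of the extension -/
def proj (c : G → G → A) [IsCoc c] : CE G A c →* G where
  toFun x := x.g
  map_one' := rfl
  map_mul' _ _ := rfl

@[simp] theorem proj_apply [IsCoc c] (x : CE G A c) : proj c x = x.g := rfl

end CE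

/-- the coinduced cocycle -/
def indC {G X Q A : Type*} [Group G] [MulAction G X] [Fintype X] [AddCommGroup A]
    (b : G → X → Q) (f : Q → Q → A) (g h : G) : A := ∑ x, f (b g (h • x)) (b h x)

section Field

variable {F : Type*} [Field F]

/-- the explicit cocycle on `Q`, in coordinates -/
def Phi (p q : F × F) : F :=
  p.1 ^ 4 * q.2 ^ 2 + p.1 ^ 2 * q.2 + p.1 ^ 6 * q.1 + p.1 ^ 4 * q.1 ^ 3

variable [Fintype F] [SzField F 1]

/-- the explicit cocycle on `Q` -/
noncomputable def fQ (p q : Qsub F 1) : F := Phi ((QEquiv 1).symm p) ((QEquiv 1).symm q)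

/-- the representatives of the left cosets of `Q` -/
noncomputable def rep : Fˣ ⊕ (F × F × Fˣ) → Cfsg.Sz F 1
  | .inl l => hS 1 l
  | .inr x => TS 1 x.1 x.2.1 * wS 1 * hS 1 x.2.2

/-- the cosets of the representatives -/
noncomputable def repQ (x : Fˣ ⊕ (F × F × Fˣ)) : Cfsg.Sz F 1 ⧸ Qsub F 1 := (rep x : Cfsg.Sz F 1)

/-- the section of `G → G / Q` -/
noncomputable def sec (x : Cfsg.Sz F 1 ⧸ Qsub F 1) : Cfsg.Sz F 1 :=
  rep (Function.invFun (repQ (F := F)) x)

open Classical in
/-- the `Q`-valued cocycle of the transversal -/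
noncomputable def bQ (g : Cfsg.Sz F 1) (x : Cfsg.Sz F 1 ⧸ Qsub F 1) : Qsub F 1 :=
  if h : (sec (g • x))⁻¹ * g * sec x ∈ Qsub F 1 then ⟨_, h⟩ else 1

noncomputable instance : Fintype (Cfsg.Sz F 1 ⧸ Qsub F 1) := Fintype.ofFinite _

/-- the coinduced cocycle on `Sz(8)` -/
noncomputable def cG : Cfsg.Sz F 1 → Cfsg.Sz F 1 → F := indC (bQ (F := F)) (fQ (F := F))

end Field

end Cfsg.Agent.Lib.Helper6.Sz8
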