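import Cfsg.Agent.Lib.Helper6.Sz8.Defs

/-! # The coinduced cocycle is a cocycle -/

set_option autoImplicit false

namespace Cfsg.Agent.Lib.Helper6.Sz8

theorem indC_isCoc {G X Q A : Type*} [Group G] [MulAction G X] [Fintype X] [Group Q] [AddCommGroup A]
    (b : G → X → Q) (hb : ∀ g h x, b (g * h) x = b g (h • x) * b h x) (f : Q → Q → A) [hf : IsCoc f] :
    IsCoc (indC b f) := by
  have hb1 : ∀ x, b 1 x = 1 := by
    intro x
    have := hb 1 1 x
    rw [one_smul, mul_one] at this
    exact (left_eq_mul.1 this)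
  refine ⟨?_, ?_, ?_⟩
  · intro x y z
    unfold indC
    have h1 : ∑ t, f (b x (y • t)) (b y t) = ∑ t, f (b x (y • z • t)) (b y (z • t)) :=
      (Equiv.sum_comp (MulAction.toPerm z) (fun t => f (b x (y • t)) (b y t))).symm
    rw [h1, ← Finset.sum_add_distrib, ← Finset.sum_add_distrib]
    refine Finset.sum_congr rfl ?_
    intro t _
    rw [hb x y (z • t), hb y z t, mul_smul]
    exact hf.assoc _ _ _
  · intro x
    unfold indC
    refine Finset.sum_eq_zero ?_
    intro t _
    rw [hb1]
    exact hf.one_left _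
  · intro x
    unfold indC
    refine Finset.sum_eq_zero ?_
    intro t _
    rw [hb1]
    exact hf.one_right _

end Cfsg.Agent.Lib.Helper6.Sz8
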