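import Cfsg.Agent.Lib.Helper6.Sz8.Defs

/-! # The explicit cocycle on the Sylow 2-subgroup of `Sz(8)` -/

set_option autoImplicit false

namespace Cfsg.Agent.Lib.Helper6.Sz8

open Cfsg.Agent.Lib.Helper37.Suz

variable {F : Type*} [Field F] [Fintype F] [SzField F 1]

theorem pow_eight (x : F) : x ^ 8 = x := by
  have h : Fintype.card F = 8 := by
    have := SzField.card (F := F) (m := 1)
    simpa using this
  have := FiniteField.pow_card x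
  rwa [h] at this

theorem two_eq_zero_F : (2 : F) = 0 := by
  have := charTwo (F := F) 1
  exact CharTwo.two_eq_zero

theorem fQ_TQ (a b c d : F) : fQ (TQ 1 a b) (TQ 1 c d) = Phi (a, b) (c, d) := by
  unfold fQ
  have h1 : (QEquiv 1).symm (TQ 1 a b) = (a, b) := (QEquiv 1).symm_apply_apply (a, b)
  have h2 : (QEquiv 1).symm (TQ 1 c d) = (c, d) := (QEquiv 1).symm_apply_apply (c, d)
  rw [h1, h2]

instance fQ_isCoc : IsCoc (fQ (F := F)) := by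
  have h2 := two_eq_zero_F (F := F)
  refine ⟨?_, ?_, ?_⟩
  · intro x y z
    obtain ⟨a1, b1, rfl⟩ := TQ_surj 1 x
    obtain ⟨a2, b2, rfl⟩ := TQ_surj 1 y
    obtain ⟨a3, b3, rfl⟩ := TQ_surj 1 z
    have h8 := pow_eight a2
    rw [TQ_mul, TQ_mul, fQ_TQ, fQ_TQ, fQ_TQ, fQ_TQ]
    simp only [Phi, sig_def]
    norm_num
    linear_combination (a1*a2*b3 + (2)*a1*a2^3*b3^2 + (2)*a1*a2^3*a3^3 + (3)*a1*a2^5*a3 + (3)*a1^2*a2^2*b3^2 + (3)*a1^2*a2^2*a3^3 + (7)*a1^2*a2^4*a3 + (2)*a1^3*a2*b3^2 + (2)*a1^3*a2*a3^3 + (10)*a1^3*a2^3*a3 + (-1)*a1^4*b2*b3 + (-2)*a1^4*a2*a3^2 + (6)*a1^4*a2^2*a3 + (-1)*a1^4*a2^4*a3*b3 + (-1)*a1^4*a2^4*b2*a3 + (3)*a1^5*a2*a3) * h2 - a1^4*a3^2 * h8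
  · intro x
    obtain ⟨a1, b1, rfl⟩ := TQ_surj 1 x
    rw [← TQ_zero, fQ_TQ]
    simp [Phi]
  · intro x
    obtain ⟨a1, b1, rfl⟩ := TQ_surj 1 x
    rw [← TQ_zero, fQ_TQ]
    simp [Phi]

end Cfsg.Agent.Lib.Helper6.Sz8
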