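import Cfsg.Agent.Lib.Helper6.Sz8.Defs

/-! # The transversal of `Q` in `Sz(8)` -/

set_option autoImplicit false

namespace Cfsg.Agent.Lib.Helper6.Sz8

open Cfsg.Agent.Lib.Helper37.Suz

variable {F : Type*} [Field F] [Fintype F] [SzField F 1]

theorem hS_inv' (l : Fˣ) : (hS 1 l)⁻¹ = hS 1 l⁻¹ := Subtype.ext (hh_inv 1 l)

/-- conjugation by the inverse of a torus element -/
theorem hS_inv_conj_TS (l : Fˣ) (a b : F) :
    (hS 1 l)⁻¹ * TS 1 a b * hS 1 l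
      = TS 1 ((l⁻¹ : Fˣ) * a) (sig 1 ((l⁻¹ : Fˣ) : F) * (l⁻¹ : Fˣ) * b) := by
  have := hS_conj_TS 1 l⁻¹ a b
  rw [← hS_inv', inv_inv] at this
  exact this

theorem repQ_surjective : Function.Surjective (repQ (F := F)) := by
  intro x
  obtain ⟨g, rfl⟩ := QuotientGroup.mk_surjective x
  rcases normal_form_S g with ⟨a, b, l, rfl⟩ | ⟨a, b, c, d, l, rfl⟩
  · refine ⟨.inl l, ?_⟩
    show ((hS 1 l : Cfsg.Sz F 1) : Cfsg.Sz F 1 ⧸ Qsub F 1) = _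
    rw [QuotientGroup.eq, ← mul_assoc, hS_inv_conj_TS]
    exact TS_mem 1 _ _
  · refine ⟨.inr (a, b, l), ?_⟩
    show ((TS 1 a b * wS 1 * hS 1 l : Cfsg.Sz F 1) : Cfsg.Sz F 1 ⧸ Qsub F 1) = _
    rw [QuotientGroup.eq]
    have : (TS 1 a b * wS 1 * hS 1 l)⁻¹ * (TS 1 a b * wS 1 * (TS 1 c d * hS 1 l))
        = (hS 1 l)⁻¹ * TS 1 c d * hS 1 l := by group
    rw [this, hS_inv_conj_TS]
    exact TS_mem 1 _ _

theorem repQ_bijective : Function.Bijective (repQ (F := F)) := by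
  classical
  apply repQ_surjective.bijective_of_nat_card_le
  have h8 : Fintype.card F = 8 := by
    have := SzField.card (F := F) (m := 1)
    simpa using this
  have h1 : Nat.card (Fˣ ⊕ (F × F × Fˣ)) = 455 := by
    rw [Nat.card_eq_fintype_card, Fintype.card_sum, Fintype.card_prod, Fintype.card_prod,
      Fintype.card_units, h8]
  have h2 := (Qsub F 1).index_mul_card
  rw [card_Qsub, card_Sz, h8] at h2
  have h3 : (Qsub F 1).index = 455 := by omega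
  rw [h1]
  exact h3.ge

theorem sec_repQ (x : Fˣ ⊕ (F × F × Fˣ)) : sec (repQ x) = rep x := by
  unfold sec
  rw [Function.leftInverse_invFun repQ_bijective.1 x]

theorem mk_sec (x : Cfsg.Sz F 1 ⧸ Qsub F 1) :
    ((sec x : Cfsg.Sz F 1) : Cfsg.Sz F 1 ⧸ Qsub F 1) = x := by
  obtain ⟨y, rfl⟩ := repQ_bijective.2 x
  rw [sec_repQ]
  rfl

theorem bQ_mem (g : Cfsg.Sz F 1) (x : Cfsg.Sz F 1 ⧸ Qsub F 1) :
    (sec (g • x))⁻¹ * g * sec x ∈ Qsub F 1 := by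
  rw [mul_assoc, ← QuotientGroup.eq, mk_sec]
  conv_lhs => rw [← mk_sec x]
  rfl

theorem bQ_coe (g : Cfsg.Sz F 1) (x : Cfsg.Sz F 1 ⧸ Qsub F 1) :
    ((bQ g x : Qsub F 1) : Cfsg.Sz F 1) = (sec (g • x))⁻¹ * g * sec x := by
  unfold bQ
  rw [dif_pos (bQ_mem g x)]

theorem bQ_mul (g h : Cfsg.Sz F 1) (x : Cfsg.Sz F 1 ⧸ Qsub F 1) :
    bQ (g * h) x = bQ g (h • x) * bQ h x := by
  apply Subtype.ext
  rw [Subgroup.coe_mul, bQ_coe, bQ_coe, bQ_coe, mul_smul]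
  group

end Cfsg.Agent.Lib.Helper6.Sz8
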