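import Cfsg.Agent.Lib.Helper6.Sz8.E3
import Cfsg.Agent.Lib.Helper6.Sz8.E4a

/-! # The commutator pairing of the coinduced cocycle -/

set_option autoImplicit false

namespace Cfsg.Agent.Lib.Helper6.Sz8

open Cfsg.Agent.Lib.Helper37.Suz

variable {F : Type*} [Field F] [Fintype F] [SzField F 1]

theorem TS_smul_inl (a b : F) (l : Fˣ) : TS 1 a b • repQ (.inl l) = repQ (.inl l) := by
  show ((TS 1 a b * hS 1 l : Cfsg.Sz F 1) : Cfsg.Sz F 1 ⧸ Qsub F 1) = ((hS 1 l : Cfsg.Sz F 1) : _)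
  symm
  rw [QuotientGroup.eq, ← mul_assoc, hS_inv_conj_TS]
  exact TS_mem 1 _ _

theorem bQ_TS_inl (a b : F) (l : Fˣ) : bQ (TS 1 a b) (repQ (.inl l))
    = TQ 1 ((l⁻¹ : Fˣ) * a) (sig 1 ((l⁻¹ : Fˣ) : F) * (l⁻¹ : Fˣ) * b) := by
  apply Subtype.ext
  rw [bQ_coe, TS_smul_inl, sec_repQ]
  exact hS_inv_conj_TS l a b

theorem TS_smul_inr (a b : F) (x : F × F × Fˣ) : TS 1 a b • repQ (.inr x)
    = repQ (.inr (a + x.1, b + x.2.1 + sig 1 a * x.1, x.2.2)) := by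
  show ((TS 1 a b * (TS 1 x.1 x.2.1 * wS 1 * hS 1 x.2.2) : Cfsg.Sz F 1) : Cfsg.Sz F 1 ⧸ Qsub F 1)
    = ((TS 1 (a + x.1) (b + x.2.1 + sig 1 a * x.1) * wS 1 * hS 1 x.2.2 : Cfsg.Sz F 1) : _)
  rw [← TS_mul]
  simp only [mul_assoc]

theorem bQ_TS_inr (a b : F) (x : F × F × Fˣ) : bQ (TS 1 a b) (repQ (.inr x)) = 1 := by
  apply Subtype.ext
  rw [bQ_coe, TS_smul_inr, sec_repQ, sec_repQ]
  show (TS 1 (a + x.1) (b + x.2.1 + sig 1 a * x.1) * wS 1 * hS 1 x.2.2)⁻¹ * TS 1 a b *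
    (TS 1 x.1 x.2.1 * wS 1 * hS 1 x.2.2) = 1
  rw [← TS_mul]
  group

theorem unit_pow_seven (k : Fˣ) : (k : F) ^ 7 = 1 := by
  have h := pow_eight (k : F)
  have hk : (k : F) ≠ 0 := k.ne_zero
  have : (k : F) * ((k : F) ^ 7 - 1) = 0 := by linear_combination h
  rcases mul_eq_zero.1 this with h1 | h1
  · exact absurd h1 hk
  · exact sub_eq_zero.1 h1

theorem cG_eq_sum (g h : Cfsg.Sz F 1) [Fintype (Fˣ ⊕ (F × F × Fˣ))] :
    cG g h = ∑ y : Fˣ ⊕ (F × F × Fˣ), fQ (bQ g (h • repQ y)) (bQ h (repQ y)) := by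
  unfold cG indC
  exact ((Equiv.ofBijective repQ repQ_bijective).sum_comp
    (fun x => fQ (bQ g (h • x)) (bQ h x))).symm

theorem cG_comm (a b y : F) :
    cG (TS 1 a b) (TS 1 0 y) - cG (TS 1 0 y) (TS 1 a b) = (a ^ 2 * y) ^ 2 + a ^ 2 * y := by
  classical
  have h2 := two_eq_zero_F (F := F)
  have h8 : Fintype.card F = 8 := by
    have := SzField.card (F := F) (m := 1)
    simpa using this
  rw [cG_eq_sum, cG_eq_sum, Fintype.sum_sum_type, Fintype.sum_sum_type]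
  have e1 : ∀ x : F × F × Fˣ,
      fQ (bQ (TS 1 a b) (TS 1 0 y • repQ (.inr x))) (bQ (TS 1 0 y) (repQ (.inr x))) = 0 := by
    intro x
    rw [bQ_TS_inr]
    exact fQ_isCoc.one_right _
  have e2 : ∀ x : F × F × Fˣ,
      fQ (bQ (TS 1 0 y) (TS 1 a b • repQ (.inr x))) (bQ (TS 1 a b) (repQ (.inr x))) = 0 := by
    intro x
    rw [bQ_TS_inr]
    exact fQ_isCoc.one_right _
  have e3 : ∀ l : Fˣ,
      fQ (bQ (TS 1 a b) (TS 1 0 y • repQ (.inl l))) (bQ (TS 1 0 y) (repQ (.inl l)))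
        = (a ^ 2 * y) ^ 2 + a ^ 2 * y := by
    intro l
    rw [TS_smul_inl, bQ_TS_inl, bQ_TS_inl, fQ_TQ]
    have hk := unit_pow_seven (l⁻¹ : Fˣ)
    generalize ((l⁻¹ : Fˣ) : F) = k at hk
    simp only [Phi, sig_def]
    norm_num
    linear_combination (a ^ 4 * y ^ 2 * (k ^ 7 + 1) + a ^ 2 * y) * hk
  have e4 : ∀ l : Fˣ,
      fQ (bQ (TS 1 0 y) (TS 1 a b • repQ (.inl l))) (bQ (TS 1 a b) (repQ (.inl l))) = 0 := by
    intro l
    rw [TS_smul_inl, bQ_TS_inl, bQ_TS_inl, fQ_TQ]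
    simp [Phi]
  simp only [e1, e2, e3, e4, Finset.sum_const_zero, add_zero, sub_zero, Finset.sum_const,
    Finset.card_univ, Fintype.card_units, h8]
  norm_num
  linear_combination (3 * ((a ^ 2 * y) ^ 2 + a ^ 2 * y)) * h2

end Cfsg.Agent.Lib.Helper6.Sz8
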