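import Mathlib

/-! # Linear algebra over the field with two elements for `Sz(8)` -/

set_option autoImplicit false

namespace Cfsg.Agent.Lib.Helper6.Sz8

variable {F : Type*} [Field F] [Fintype F]

theorem charTwo_of_card (hF : Fintype.card F = 8) : CharP F 2 :=
  haveI : Fact (Nat.Prime 2) := ⟨Nat.prime_two⟩
  charP_of_card_eq_prime_pow (f := 3) (by rw [hF]; norm_num)

theorem exists_surj (hF : Fintype.card F = 8) {K : Type*} [Group K] (lam : F → K)
    (hadd : ∀ x y, lam (x + y) = lam x * lam y) (h1 : lam 1 = 1) (hsurj : Function.Surjective lam) :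
    ∃ π : Multiplicative (ZMod 2 × ZMod 2) →* K, Function.Surjective π := by
  classical
  have := charTwo_of_card hF
  have h0 : lam 0 = 1 := by
    have := hadd 0 0
    rw [add_zero] at this
    exact (left_eq_mul.1 this)
  obtain ⟨u, hu⟩ : ∃ u : F, u ∉ ({0, 1} : Finset F) := by
    by_contra hcon
    push Not at hcon
    have : Fintype.card F ≤ ({0, 1} : Finset F).card :=
      Finset.card_le_card (fun x _ => hcon x)
    have h2 : ({0, 1} : Finset F).card ≤ 2 := Finset.card_le_two
    omega
  obtain ⟨v, hv⟩ : ∃ v : F, v ∉ ({0, 1, u, u + 1} : Finset F) := by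
    by_contra hcon
    push Not at hcon
    have : Fintype.card F ≤ ({0, 1, u, u + 1} : Finset F).card :=
      Finset.card_le_card (fun x _ => hcon x)
    have h2 : ({0, 1, u, u + 1} : Finset F).card ≤ 4 := Finset.card_le_four
    omega
  simp only [Finset.mem_insert, Finset.mem_singleton, not_or] at hu hv
  let ι : ZMod 2 →+* F := ZMod.castHom (dvd_refl 2) F
  let ψ : ZMod 2 × ZMod 2 × ZMod 2 →+ F :=
    { toFun := fun p => ι p.1 + ι p.2.1 * u + ι p.2.2 * v
      map_zero' := by simp
      map_add' := by
        intro p q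
        simp only [Prod.fst_add, Prod.snd_add, map_add]
        ring }
  have hψ : Function.Injective ψ := by
    rw [injective_iff_map_eq_zero]
    rintro ⟨e, i, j⟩ h
    have h' : ι e + ι i * u + ι j * v = 0 := h
    have hc : ∀ t : ZMod 2, t = 0 ∨ t = 1 := by decide
    rcases hc e with rfl | rfl <;> rcases hc i with rfl | rfl <;> rcases hc j with rfl | rfl <;>
      simp only [map_zero, map_one, zero_mul, one_mul, add_zero, zero_add] at h'
    · rfl
    · exact absurd h' hv.1
    · exact absurd h' hu.1
    · exact absurd (CharTwo.add_eq_zero.1 h').symm hv.2.2.1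
    · exact absurd h' one_ne_zero
    · exact absurd (CharTwo.add_eq_zero.1 h').symm hv.2.1
    · exact absurd (CharTwo.add_eq_zero.1 h').symm hu.2
    · refine absurd ?_ hv.2.2.2
      have := (CharTwo.add_eq_zero.1 h').symm
      rw [this, add_comm]
  have hψb : Function.Bijective ψ := by
    apply hψ.bijective_of_nat_card_le
    rw [Nat.card_eq_fintype_card, Nat.card_eq_fintype_card, hF]
    simp [Fintype.card_prod, ZMod.card]
  refine ⟨{ toFun := fun p => lam (ψ (0, Multiplicative.toAdd p))
            map_one' := by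
              show lam (ψ (0, (0 : ZMod 2 × ZMod 2))) = 1
              have : ((0 : ZMod 2), (0 : ZMod 2 × ZMod 2)) = 0 := rfl
              rw [this, map_zero, h0]
            map_mul' := by
              intro p q
              rw [← hadd, ← map_add]
              congr 2 }, ?_⟩
  intro k
  obtain ⟨x, rfl⟩ := hsurj k
  obtain ⟨⟨e, p⟩, rfl⟩ := hψb.2 x
  refine ⟨Multiplicative.ofAdd p, ?_⟩
  show lam (ψ (0, p)) = lam (ψ (e, p))
  have hsplit : ψ (e, p) = ι e + ψ (0, p) := by
    show ι e + ι p.1 * u + ι p.2 * v = ι e + (ι 0 + ι p.1 * u + ι p.2 * v)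
    rw [map_zero]; ring
  rw [hsplit, hadd]
  have hc : ∀ t : ZMod 2, t = 0 ∨ t = 1 := by decide
  rcases hc e with rfl | rfl
  · rw [map_zero, h0, one_mul]
  · rw [map_one, h1, one_mul]

theorem mulEquiv_of_surj {K : Type*} [Group K] (π : Multiplicative (ZMod 2 × ZMod 2) →* K)
    (hπ : Function.Surjective π) (h4 : 4 ≤ Nat.card K) :
    Nonempty (K ≃* Multiplicative (ZMod 2 × ZMod 2)) := by
  have hb : Function.Bijective π := by
    apply hπ.bijective_of_nat_card_le
    refine le_trans (le_of_eq ?_) h4
    rw [Nat.card_eq_fintype_card]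
    rfl
  exact ⟨(MulEquiv.ofBijective π hb).symm⟩

/-- the Artin-Schreier map has at least 4 values -/
theorem four_le_card_image (hF : Fintype.card F = 8) [DecidableEq F] :
    4 ≤ (Finset.univ.image (fun t : F => t ^ 2 + t)).card := by
  have := charTwo_of_card hF
  have h := Finset.card_le_mul_card_image (f := fun t : F => t ^ 2 + t) Finset.univ 2 (by
    intro a ha
    obtain ⟨x0, -, rfl⟩ := Finset.mem_image.1 ha
    refine le_trans (Finset.card_le_card (t := {x0, x0 + 1}) ?_) Finset.card_le_two
    intro x hx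
    have hx' : x ^ 2 + x = x0 ^ 2 + x0 := (Finset.mem_filter.1 hx).2
    have h2 : (2 : F) = 0 := CharTwo.two_eq_zero
    have : (x - x0) * (x - (x0 + 1)) = 0 := by
      linear_combination hx' - (x + x0 * x - x0 ^ 2 - x0) * h2
    rcases mul_eq_zero.1 this with h | h
    · simp [sub_eq_zero.1 h]
    · simp [sub_eq_zero.1 h])
  rw [Finset.card_univ, hF] at h
  omega

end Cfsg.Agent.Lib.Helper6.Sz8
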