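import Cfsg.Agent.Lib.Helper6.Sz8.Defs
import Cfsg.Agent.Lib.Helper37.Suzuki.Simple

/-! # `Sz(8)` is perfect -/

set_option autoImplicit false

namespace Cfsg.Agent.Lib.Helper6.Sz8

open Cfsg.Agent.Lib.Helper37.Suz
open scoped commutatorElement

variable {F : Type*} [Field F] [Fintype F] [SzField F 1]

theorem commutator_Sz : commutator (Cfsg.Sz F 1) = ⊤ := by
  have := charTwo (F := F) 1
  apply normal_eq_top 1
  intro hbot
  obtain ⟨z, hz0, hz1⟩ := exists_ne_zero_one (F := F) 1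
  have h1 : ⁅TS 1 (1 : F) 0, TS 1 z 0⁆ ∈ commutator (Cfsg.Sz F 1) :=
    Subgroup.commutator_mem_commutator (Subgroup.mem_top _) (Subgroup.mem_top _)
  rw [hbot, Subgroup.mem_bot, TS_commutator, ← TS_zero] at h1
  have h2 := (TS_injective 1 h1).2
  rw [sig_one, one_mul, mul_one] at h2
  have h3 : sig 1 z = z := (CharTwo.add_eq_zero.1 h2).symm
  rcases (sig_eq_self_iff 1 z).1 h3 with h | h
  · exact hz0 h
  · exact hz1 h

end Cfsg.Agent.Lib.Helper6.Sz8
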