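import Cfsg.Agent.Lib.Helper6.Sz8.Defs

/-!
# S2112 farm, piece U1a: the commutator pairing `[Q, Z(Q)]` of a central extension of `Sz(8)`
-/

set_option autoImplicit false

namespace Cfsg.Agent.Lib.Helper6.Sz8

open Cfsg.Agent.Lib.Helper37.Suz
open Cfsg.Agent.Lib.Helper37.CentralExt
open scoped commutatorElement

variable {F : Type*} [Field F] [Fintype F]

variable [SzField F 1]

theorem u1a_pow_eight (x : F) : x ^ 8 = x := by
  have h := FiniteField.pow_card x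
  rw [SzField.card (F := F) (m := 1)] at h
  norm_num at h
  exact h

theorem u1a_pow_seven {x : F} (hx : x ≠ 0) : x ^ 7 = 1 := by
  have h := u1a_pow_eight x
  have h2 : x * (x ^ 7 - 1) = 0 := by
    have : x * (x ^ 7 - 1) = x ^ 8 - x := by ring
    rw [this, h, sub_self]
  rcases mul_eq_zero.1 h2 with h3 | h3
  · exact absurd h3 hx
  · exact sub_eq_zero.1 h3

omit [Fintype F] [SzField F 1] in
theorem u1a_sig_one (x : F) : sig 1 x = x ^ 4 := by
  rw [sig_def]; norm_num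

theorem exists_lam {Γ : Type*} [Group Γ] (σ : Γ →* Cfsg.Sz F 1) (hs : Function.Surjective σ)
    (hc : σ.ker ≤ Subgroup.center Γ) :
    ∃ lam : F → Γ, (∀ x, lam x ∈ σ.ker) ∧ (∀ x y, lam (x + y) = lam x * lam y) ∧
      ∀ (u v : Γ) (a b y : F), σ u = TS 1 a b → σ v = TS 1 0 y → ⁅u, v⁆ = lam (a ^ 2 * y) := by
  have := charTwo (F := F) 1
  let s := Function.surjInv hs
  have hs' : ∀ g, σ (s g) = g := Function.surjInv_eq hs
  let tt : F → F → Γ := fun a b => s (TS 1 a b)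
  let ee : Fˣ → Γ := fun k => s (hS 1 k)
  have htt : ∀ a b, σ (tt a b) = TS 1 a b := fun a b => hs' _
  have hee : ∀ k, σ (ee k) = hS 1 k := fun k => hs' _
  have hker : ∀ u v : Γ, σ u * σ v = σ v * σ u → ⁅u, v⁆ ∈ σ.ker := by
    intro u v h
    rw [MonoidHom.mem_ker, map_commutatorElement, commutatorElement_eq_one_iff_mul_comm]
    exact h
  have hcen : ∀ u v : Γ, σ u * σ v = σ v * σ u → ⁅u, v⁆ ∈ Subgroup.center Γ :=
    fun u v h => hc (hker u v h)
  have hL : ∀ u u' u'' v : Γ, σ u'' = σ u * σ u' → u * ⁅u', v⁆ = ⁅u', v⁆ * u →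
      ⁅u', v⁆ * ⁅u, v⁆ = ⁅u, v⁆ * ⁅u', v⁆ → ⁅u'', v⁆ = ⁅u, v⁆ * ⁅u', v⁆ := by
    intro u u' u'' v h h1 h2
    rw [comm_congr σ hc (u := u'') (u' := u * u') (v := v) (v' := v) (by rw [h, map_mul]) rfl,
      comm_mul_left, h1, mul_inv_cancel_right, h2]
  have hR : ∀ u v v' v'' : Γ, σ v'' = σ v * σ v' → v * ⁅u, v'⁆ = ⁅u, v'⁆ * v →
      ⁅u, v''⁆ = ⁅u, v⁆ * ⁅u, v'⁆ := by
    intro u v v' v'' h h1
    rw [comm_congr σ hc (u := u) (u' := u) (v := v'') (v' := v * v') rfl (by rw [h, map_mul]),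
      comm_mul_right, h1, mul_inv_cancel_right]
  have hC : ∀ x u v u1 v1 : Γ, σ u1 = σ x * σ u * (σ x)⁻¹ → σ v1 = σ x * σ v * (σ x)⁻¹ →
      ⁅u1, v1⁆ = x * ⁅u, v⁆ * x⁻¹ := by
    intro x u v u1 v1 hu hv
    rw [conj_comm]
    exact comm_congr σ hc (by simp [hu]) (by simp [hv])
  have hconjc : ∀ x c : Γ, c ∈ Subgroup.center Γ → x * c * x⁻¹ = c := by
    intro x c hcc
    rw [Subgroup.mem_center_iff.1 hcc x, mul_inv_cancel_right]
  -- all commutators [Q, Z] are central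
  have hcz : ∀ a b y, ⁅tt a b, tt 0 y⁆ ∈ Subgroup.center Γ := fun a b y =>
    hcen _ _ (by rw [htt, htt]; exact TS_comm_zero 1 a b y)
  have hLz : ∀ a b a' b' a'' b'' y, TS 1 a'' b'' = TS 1 a b * TS 1 a' b' →
      ⁅tt a'' b'', tt 0 y⁆ = ⁅tt a b, tt 0 y⁆ * ⁅tt a' b', tt 0 y⁆ := by
    intro a b a' b' a'' b'' y h
    exact hL _ _ _ _ (by rw [htt, htt, htt, h]) (Subgroup.mem_center_iff.1 (hcz a' b' y) _)
      (Subgroup.mem_center_iff.1 (hcz a b y) _)
  have hRz : ∀ a b y y', ⁅tt a b, tt 0 (y + y')⁆ = ⁅tt a b, tt 0 y⁆ * ⁅tt a b, tt 0 y'⁆ := by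
    intro a b y y'
    exact hR _ _ _ _ (by rw [htt, htt, htt, TS_mul_zero]) (Subgroup.mem_center_iff.1 (hcz a b y') _)
  have hCz : ∀ (k : Fˣ) a b y, ⁅tt (k * a) (sig 1 (k : F) * k * b), tt 0 (sig 1 (k : F) * k * y)⁆
      = ⁅tt a b, tt 0 y⁆ := by
    intro k a b y
    rw [hC (ee k) (tt a b) (tt 0 y) _ _ (by rw [htt, htt, hee, hS_conj_TS])
      (by rw [htt, htt, hee, hS_conj_TS, mul_zero]), hconjc _ _ (hcz a b y)]
  -- Step 1
  have h1 : ∀ x y, ⁅tt 0 x, tt 0 y⁆ = 1 := by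
    apply biadd_eq_one_A 1 (fun x y => ⁅tt 0 x, tt 0 y⁆)
    · intro x x' y
      exact hLz 0 x 0 x' 0 (x + x') y (TS_mul_zero 1 0 x x').symm
    · intro x y y'
      exact hRz 0 x y y'
    · intro μ hμ x y
      obtain ⟨k0, hk0⟩ := sig_mul_self_surjective (F := F) 1 μ
      have hk00 : k0 ≠ 0 := by
        rintro rfl
        apply hμ
        rw [← hk0]; simp
      have := hCz (Units.mk0 k0 hk00) 0 x y
      simp only [Units.val_mk0, mul_zero] at this
      simp only at hk0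
      rw [hk0] at this
      exact this
  have hind : ∀ a b y, ⁅tt a b, tt 0 y⁆ = ⁅tt a 0, tt 0 y⁆ := by
    intro a b y
    rw [hLz a 0 0 b a b y (by rw [TS_mul_zero, zero_add]), h1, mul_one]
  refine ⟨fun x => ⁅tt 1 0, tt 0 x⁆, ?_, ?_, ?_⟩
  · intro x
    exact hker _ _ (by rw [htt, htt]; exact TS_comm_zero 1 1 0 x)
  · intro x y
    exact hRz 1 0 x y
  · intro u v a b y hu hv
    show ⁅u, v⁆ = ⁅tt 1 0, tt 0 (a ^ 2 * y)⁆
    rw [comm_congr σ hc (u := u) (u' := tt a b) (v := v) (v' := tt 0 y) (by rw [hu, htt])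
        (by rw [hv, htt]), hind]
    by_cases ha : a = 0
    · subst ha
      rw [h1]
      have h0 : ⁅tt 1 0, tt 0 (0 : F)⁆ = 1 := by
        have := hRz 1 0 0 0
        rw [add_zero] at this
        exact (mul_eq_left.1 this.symm)
      rw [show (0 : F) ^ 2 * y = 0 by ring, h0]
    · have := hCz (Units.mk0 a ha) 1 0 (a ^ 2 * y)
      simp only [Units.val_mk0, mul_zero, mul_one] at this
      rw [← this]
      have e : sig 1 a * a * (a ^ 2 * y) = y := by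
        rw [u1a_sig_one]
        have : a ^ 4 * a * (a ^ 2 * y) = a ^ 7 * y := by ring
        rw [this, u1a_pow_seven ha, one_mul]
      rw [e]

end Cfsg.Agent.Lib.Helper6.Sz8
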