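import Cfsg.Agent.Lib.Helper6.Sz8.Defs

/-! # The Hall-Witt identity kills `lam 1` -/

set_option autoImplicit false

namespace Cfsg.Agent.Lib.Helper6.Sz8

open Cfsg.Agent.Lib.Helper37.Suz
open scoped commutatorElement

variable {F : Type*} [Field F] [Fintype F] [SzField F 1]

theorem exists_zeta : ∃ z : F, z ^ 3 = z + 1 := by
  have := charTwo (F := F) 1
  have h2 : (2 : F) = 0 := CharTwo.two_eq_zero
  obtain ⟨z, hz0, hz1⟩ := exists_ne_zero_one (F := F) 1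
  have h8 : z ^ 8 = z := by
    have h : Fintype.card F = 8 := by
      have := SzField.card (F := F) (m := 1)
      simpa using this
    have := FiniteField.pow_card z
    rwa [h] at this
  have hprod : z * (z - 1) * (z ^ 3 - z - 1) * ((z + 1) ^ 3 - (z + 1) - 1) = 0 := by
    linear_combination h8 + (z^2 + (2)*z^3 + (-3)*z^5 + (-1)*z^6 + z^7) * h2
  rcases mul_eq_zero.1 hprod with h | h
  · rcases mul_eq_zero.1 h with h | h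
    · rcases mul_eq_zero.1 h with h | h
      · exact absurd h hz0
      · exact absurd (sub_eq_zero.1 h) hz1
    · exact ⟨z, by linear_combination h⟩
  · exact ⟨z + 1, by linear_combination h⟩

theorem hall_witt {Γ : Type*} [Group Γ] (x y z : Γ) :
    ⁅z, ⁅x, y⁆⁆ = x * z * ⁅y, ⁅z⁻¹, x⁻¹⁆⁆⁻¹ * z⁻¹ * y * ⁅x⁻¹, ⁅y⁻¹, z⁆⁆⁻¹ * y⁻¹ * x⁻¹ := by
  simp only [commutatorElement_def]
  group

theorem lam_one {Γ : Type*} [Group Γ] (σ : Γ →* Cfsg.Sz F 1) (hs : Function.Surjective σ)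
    (hc : σ.ker ≤ Subgroup.center Γ) (lam : F → Γ) (hk : ∀ x, lam x ∈ σ.ker)
    (hadd : ∀ x y, lam (x + y) = lam x * lam y)
    (hcomm : ∀ (u v : Γ) (a b y : F), σ u = TS 1 a b → σ v = TS 1 0 y → ⁅u, v⁆ = lam (a ^ 2 * y)) :
    lam 1 = 1 := by
  have := charTwo (F := F) 1
  have h2 : (2 : F) = 0 := CharTwo.two_eq_zero
  have h0 : lam 0 = 1 := by
    have := hadd 0 0
    rw [add_zero] at this
    exact (left_eq_mul.1 this)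
  obtain ⟨ζ, hζ⟩ := exists_zeta (F := F)
  obtain ⟨x, hx⟩ := hs (TS 1 1 0)
  obtain ⟨y, hy⟩ := hs (TS 1 ζ 0)
  obtain ⟨z, hz⟩ := hs (TS 1 (ζ ^ 2) 0)
  have hcen : ∀ t g, g * lam t = lam t * g := fun t g => Subgroup.mem_center_iff.1 (hc (hk t)) g
  have hxi : σ x⁻¹ = TS 1 1 (0 + sig 1 1 * 1) := by rw [map_inv, hx, TS_inv]
  have hyi : σ y⁻¹ = TS 1 ζ (0 + sig 1 ζ * ζ) := by rw [map_inv, hy, TS_inv]
  have hzi : σ z⁻¹ = TS 1 (ζ ^ 2) (0 + sig 1 (ζ ^ 2) * ζ ^ 2) := by rw [map_inv, hz, TS_inv]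
  have e1 : ⁅z, ⁅x, y⁆⁆ = lam ((ζ ^ 2) ^ 2 * (sig 1 1 * ζ + sig 1 ζ * 1)) :=
    hcomm _ _ _ _ _ hz (by rw [map_commutatorElement, hx, hy, TS_commutator])
  have e2 : ⁅y, ⁅z⁻¹, x⁻¹⁆⁆ = lam (ζ ^ 2 * (sig 1 (ζ ^ 2) * 1 + sig 1 1 * ζ ^ 2)) :=
    hcomm _ _ _ _ _ hy (by rw [map_commutatorElement, hzi, hxi, TS_commutator])
  have e3 : ⁅x⁻¹, ⁅y⁻¹, z⁆⁆ = lam (1 ^ 2 * (sig 1 ζ * ζ ^ 2 + sig 1 (ζ ^ 2) * ζ)) :=
    hcomm _ _ _ _ _ hxi (by rw [map_commutatorElement, hyi, hz, TS_commutator])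
  have hw := hall_witt x y z
  rw [e1, e2, e3] at hw
  set X := lam ((ζ ^ 2) ^ 2 * (sig 1 1 * ζ + sig 1 ζ * 1)) with hX
  set Y := lam (ζ ^ 2 * (sig 1 (ζ ^ 2) * 1 + sig 1 1 * ζ ^ 2)) with hY
  set Z := lam (1 ^ 2 * (sig 1 ζ * ζ ^ 2 + sig 1 (ζ ^ 2) * ζ)) with hZ
  have cY : ∀ g, g * Y⁻¹ = Y⁻¹ * g := by
    intro g
    have := hcen (ζ ^ 2 * (sig 1 (ζ ^ 2) * 1 + sig 1 1 * ζ ^ 2)) g
    rw [← hY] at this
    rw [eq_inv_mul_iff_mul_eq, ← mul_assoc, ← this, mul_inv_cancel_right]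
  have cZ : ∀ g, g * Z⁻¹ = Z⁻¹ * g := by
    intro g
    have := hcen (1 ^ 2 * (sig 1 ζ * ζ ^ 2 + sig 1 (ζ ^ 2) * ζ)) g
    rw [← hZ] at this
    rw [eq_inv_mul_iff_mul_eq, ← mul_assoc, ← this, mul_inv_cancel_right]
  have hw2 : X = Y⁻¹ * Z⁻¹ := by
    rw [hw]
    calc x * z * Y⁻¹ * z⁻¹ * y * Z⁻¹ * y⁻¹ * x⁻¹
        = (x * z) * Y⁻¹ * z⁻¹ * (y * Z⁻¹) * y⁻¹ * x⁻¹ := by group
      _ = Y⁻¹ * (x * z) * z⁻¹ * (Z⁻¹ * y) * y⁻¹ * x⁻¹ := by rw [cY, cZ]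
      _ = Y⁻¹ * (x * Z⁻¹) * x⁻¹ := by group
      _ = Y⁻¹ * Z⁻¹ := by rw [cZ]; group
  have hw3 : X * Z * Y = 1 := by
    rw [hw2]; group
  rw [hX, hZ, hY, ← hadd, ← hadd] at hw3
  rw [← hw3]
  congr 1
  simp only [sig_def]
  norm_num
  linear_combination (-((9) + (7)*ζ + (5)*ζ^2 + (4)*ζ^3 + (2)*ζ^4 + (2)*ζ^5 + ζ^6 + ζ^7)) * hζ - ((4) + (8)*ζ + (6)*ζ^2) * h2

end Cfsg.Agent.Lib.Helper6.Sz8
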