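import Cfsg.Agent.Lib.Helper6.Sz8.U0

/-!
# S2112 farm, piece U2: the kernel of a stem extension of `Sz(8)` is the range of `lam`
-/

set_option autoImplicit false

namespace Cfsg.Agent.Lib.Helper6.Sz8

open Cfsg.Agent.Lib.Helper37.Suz
open Cfsg.Agent.Lib.Helper37.CentralExt
open scoped commutatorElement

variable {F : Type*} [Field F] [Fintype F]

variable [SzField F 1]

theorem ker_eq_range_lam {Γ : Type*} [Group Γ] [Finite Γ] (σ : Γ →* Cfsg.Sz F 1)
    (hs : Function.Surjective σ) (hc : σ.ker ≤ Subgroup.center Γ) (hd : σ.ker ≤ commutator Γ)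
    (lam : F → Γ) (hk : ∀ x, lam x ∈ σ.ker) (hadd : ∀ x y, lam (x + y) = lam x * lam y)
    (hcomm : ∀ (u v : Γ) (a b y : F), σ u = TS 1 a b → σ v = TS 1 0 y → ⁅u, v⁆ = lam (a ^ 2 * y)) :
    ∀ z ∈ σ.ker, ∃ x, z = lam x := by
  have hch := charTwo (F := F) 1
  have h0 : lam 0 = 1 := by
    have := hadd 0 0
    rw [add_zero] at this
    exact mul_eq_left.1 this.symm
  let L : Subgroup Γ :=
    { carrier := Set.range lam
      one_mem' := ⟨0, h0⟩
      mul_mem' := by
        rintro _ _ ⟨x, rfl⟩ ⟨y, rfl⟩
        exact ⟨x + y, hadd x y⟩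
      inv_mem' := by
        rintro _ ⟨x, rfl⟩
        refine ⟨x, ?_⟩
        rw [eq_comm, inv_eq_iff_mul_eq_one, ← hadd, CharTwo.add_self_eq_zero, h0] }
  have hLk : L ≤ σ.ker := by
    rintro _ ⟨x, rfl⟩
    exact hk x
  have hLn : L.Normal := ⟨by
    intro n hn g
    have := Subgroup.mem_center_iff.1 (hc (hLk hn)) g
    rw [this, mul_inv_cancel_right]
    exact hn⟩
  let τ : Γ ⧸ L →* Cfsg.Sz F 1 := QuotientGroup.lift L σ hLk
  have hτ : ∀ g : Γ, τ (g : Γ ⧸ L) = σ g := fun g => rfl
  have hbot : τ.ker = ⊥ := by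
    apply ker_eq_bot_of_comm 1 τ
    · intro g
      obtain ⟨x, rfl⟩ := hs g
      exact ⟨(x : Γ ⧸ L), hτ x⟩
    · intro x hx
      induction x using QuotientGroup.induction_on with
      | H x =>
        rw [MonoidHom.mem_ker, hτ] at hx
        rw [Subgroup.mem_center_iff]
        intro y
        induction y using QuotientGroup.induction_on with
        | H y =>
          rw [← QuotientGroup.mk_mul, ← QuotientGroup.mk_mul,
            Subgroup.mem_center_iff.1 (hc hx) y]
    · intro x hx
      induction x using QuotientGroup.induction_on with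
      | H x =>
        rw [MonoidHom.mem_ker, hτ] at hx
        have h1 : x ∈ commutator Γ := hd hx
        have h2 : (QuotientGroup.mk' L) x ∈ (commutator Γ).map (QuotientGroup.mk' L) :=
          Subgroup.mem_map_of_mem _ h1
        rw [commutator_def, Subgroup.map_commutator] at h2
        rw [commutator_def]
        exact Subgroup.commutator_mono le_top le_top h2
    · intro u v hu hv
      induction u using QuotientGroup.induction_on with
      | H u =>
        induction v using QuotientGroup.induction_on with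
        | H v =>
          rw [hτ] at hu hv
          obtain ⟨a, b, hu⟩ := hu
          obtain ⟨y, hv⟩ := hv
          have h1 := hcomm u v a b y hu hv
          have h2 : u * v = lam (a ^ 2 * y) * (v * u) := by
            rw [← h1, commutatorElement_def]
            group
          rw [← QuotientGroup.mk_mul, ← QuotientGroup.mk_mul, h2, QuotientGroup.mk_mul,
            (QuotientGroup.eq_one_iff (N := L) _).2 ⟨_, rfl⟩, one_mul]
  intro z hz
  have h1 : (z : Γ ⧸ L) ∈ τ.ker := by
    rw [MonoidHom.mem_ker, hτ]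
    exact hz
  rw [hbot, Subgroup.mem_bot, QuotientGroup.eq_one_iff] at h1
  obtain ⟨x, hx⟩ := h1
  exact ⟨x, hx.symm⟩

end Cfsg.Agent.Lib.Helper6.Sz8
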