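import Cfsg.Agent.Lib.Helper6.Sz8.E2
import Cfsg.Agent.Lib.Helper6.Sz8.E4b
import Cfsg.Agent.Lib.Helper6.Sz8.CEL
import Cfsg.Agent.Lib.Helper6.Sz8.LIN
import Cfsg.Agent.Lib.Helper6.Sz8.PERF
import Cfsg.Agent.Lib.Helper6.Sz8.U1a
import Cfsg.Agent.Lib.Helper6.Sz8.U1b
import Cfsg.Agent.Lib.Helper6.Sz8.U2

/-! # The Schur multiplier of `Sz(8)`: assembly -/

set_option autoImplicit false

namespace Cfsg.Agent.Lib.Helper6.Sz8

open Cfsg.Agent.Lib.Helper37.Suz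
open scoped commutatorElement

universe u

variable {F : Type u} [Field F] [Fintype F] [SzField F 1]

theorem card_eq_eight : Fintype.card F = 8 := by
  have := SzField.card (F := F) (m := 1)
  simpa using this

theorem upper {Γ : Type*} [Group Γ] [Finite Γ] (σ : Γ →* Cfsg.Sz F 1)
    (h : Cfsg.IsStemExtension σ) :
    ∃ π : Multiplicative (ZMod 2 × ZMod 2) →* σ.ker, Function.Surjective π := by
  obtain ⟨hs, hc, hd⟩ := h
  obtain ⟨lam, hk, hadd, hcomm⟩ := exists_lam σ hs hc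
  have h1 := lam_one σ hs hc lam hk hadd hcomm
  have hr := ker_eq_range_lam σ hs hc hd lam hk hadd hcomm
  refine exists_surj (F := F) card_eq_eight (fun x => (⟨lam x, hk x⟩ : σ.ker)) ?_ ?_ ?_
  · intro x y
    exact Subtype.ext (hadd x y)
  · exact Subtype.ext h1
  · rintro ⟨z, hz⟩
    obtain ⟨x, rfl⟩ := hr z hz
    exact ⟨x, rfl⟩

instance cG_isCoc : IsCoc (cG (F := F)) := indC_isCoc _ bQ_mul _

theorem mem_commutator_CE (t : F) :
    (⟨1, t ^ 2 + t⟩ : CE (Cfsg.Sz F 1) F cG) ∈ commutator (CE (Cfsg.Sz F 1) F cG) := by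
  have h := CE.commutator_eq (cG (F := F)) (TS 1 1 0) (TS 1 0 t) (TS_comm_zero 1 1 0 t)
  rw [cG_comm] at h
  simp only [one_pow, one_mul] at h
  rw [← h]
  exact Subgroup.commutator_mem_commutator (Subgroup.mem_top _) (Subgroup.mem_top _)

theorem exists_stem : ∃ (Γ : Type u) (_ : Group Γ) (_ : Finite Γ) (σ : Γ →* Cfsg.Sz F 1),
    Cfsg.IsStemExtension σ ∧ Nonempty (σ.ker ≃* Multiplicative (ZMod 2 × ZMod 2)) := by
  classical
  have : Finite (Cfsg.Sz F 1) := Subtype.finite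
  have hfin : Finite (CE (Cfsg.Sz F 1) F cG) := CE.finite _
  let σ : ↥(commutator (CE (Cfsg.Sz F 1) F cG)) →* Cfsg.Sz F 1 :=
    (CE.proj cG).comp (commutator (CE (Cfsg.Sz F 1) F cG)).subtype
  have hst : Cfsg.IsStemExtension σ :=
    stem_of_central (CE.proj cG) (CE.proj_surjective _) (CE.ker_le_center _) commutator_Sz
  refine ⟨↥(commutator (CE (Cfsg.Sz F 1) F cG)), inferInstance, inferInstance, σ, hst, ?_⟩
  obtain ⟨π, hπ⟩ := upper σ hst
  refine mulEquiv_of_surj π hπ ?_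
  let S : Finset F := Finset.univ.image (fun t : F => t ^ 2 + t)
  have hS : 4 ≤ S.card := four_le_card_image card_eq_eight
  have hmem : ∀ v : S, (⟨1, v.1⟩ : CE (Cfsg.Sz F 1) F cG) ∈ commutator (CE (Cfsg.Sz F 1) F cG) := by
    rintro ⟨v, hv⟩
    obtain ⟨t, -, rfl⟩ := Finset.mem_image.1 hv
    exact mem_commutator_CE t
  let j : S → σ.ker := fun v => ⟨⟨⟨1, v.1⟩, hmem v⟩, rfl⟩
  have hj : Function.Injective j := by
    intro v v' h
    have h1 : (⟨1, v.1⟩ : CE (Cfsg.Sz F 1) F cG) = ⟨1, v'.1⟩ :=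
      congrArg (fun z : σ.ker => ((z : ↥(commutator (CE (Cfsg.Sz F 1) F cG))) : CE (Cfsg.Sz F 1) F cG)) h
    exact Subtype.ext (congrArg CE.a h1)
  calc 4 ≤ S.card := hS
    _ = Nat.card S := by simp
    _ ≤ Nat.card σ.ker := Nat.card_le_card_of_injective j hj

/-- transport of the multiplier along an isomorphism -/
theorem hasSchurMultiplier_congr {G G' : Type u} [Group G] [Group G'] (e : G ≃* G') {A : Type*}
    [CommGroup A] (h : Cfsg.HasSchurMultiplier G A) : Cfsg.HasSchurMultiplier G' A := by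
  have hker : ∀ {Γ : Type u} [Group Γ] (σ : Γ →* G), (e.toMonoidHom.comp σ).ker = σ.ker := by
    intro Γ _ σ
    ext x
    simp [MonoidHom.mem_ker]
  have hker' : ∀ {Γ : Type u} [Group Γ] (σ : Γ →* G'), (e.symm.toMonoidHom.comp σ).ker = σ.ker := by
    intro Γ _ σ
    ext x
    simp [MonoidHom.mem_ker]
  obtain ⟨⟨Γ, i1, i2, σ, ⟨hs, hc, hd⟩, ⟨f⟩⟩, h2⟩ := h
  constructor
  · refine ⟨Γ, i1, i2, e.toMonoidHom.comp σ, ⟨e.surjective.comp hs, ?_, ?_⟩, ?_⟩
    · rw [hker]; exact hc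
    · rw [hker]; exact hd
    · exact ⟨(MulEquiv.subgroupCongr (hker σ)).trans f⟩
  · intro Γ _ _ σ ⟨hs, hc, hd⟩
    obtain ⟨π, hπ⟩ := h2 Γ (e.symm.toMonoidHom.comp σ)
      ⟨e.symm.surjective.comp hs, by rw [hker']; exact hc, by rw [hker']; exact hd⟩
    refine ⟨(MulEquiv.subgroupCongr (hker' σ)).toMonoidHom.comp π, ?_⟩
    exact (MulEquiv.subgroupCongr (hker' σ)).surjective.comp hπ

theorem main_Sz : Cfsg.HasSchurMultiplier (Cfsg.Sz F 1) (Multiplicative (ZMod 2 × ZMod 2)) :=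
  ⟨exists_stem, fun _ _ _ σ h => upper σ h⟩

theorem main_Lie : Cfsg.HasSchurMultiplier ↥(Cfsg.Lie.Sz F 4) (Multiplicative (ZMod 2 × ZMod 2)) :=
  hasSchurMultiplier_congr (lieEquiv (F := F) 1) main_Sz

end Cfsg.Agent.Lib.Helper6.Sz8
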