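import Cfsg.Agent.Lib.Helper6.Sz8.Defs

/-!
# S2112 farm, piece U0: a stem extension of `Sz(q)` in which `Q` centralises `Z(Q)` is trivial
(helper37's argument with Steps 1-2 replaced by a hypothesis)
-/

set_option autoImplicit false

namespace Cfsg.Agent.Lib.Helper6.Sz8

open Cfsg.Agent.Lib.Helper37.Suz
open Cfsg.Agent.Lib.Helper37.CentralExt
open scoped commutatorElement

variable {F : Type*} [Field F] [Fintype F]

theorem pow_eq_one_of_mem_ker_comm (m : ℕ) [SzField F m] {Γ : Type*} [Group Γ]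
    (σ : Γ →* Cfsg.Sz F m)
    (hs : Function.Surjective σ) (hc : σ.ker ≤ Subgroup.center Γ)
    (hQZ : ∀ u v : Γ, σ u ∈ Qsub F m → σ v ∈ Zsub F m → u * v = v * u) {z : Γ} (hz : z ∈ σ.ker)
    (hz' : z ∈ ⁅(Qsub F m).comap σ, (Qsub F m).comap σ⁆) : z ^ (Fintype.card F - 1) = 1 := by
  have := charTwo (F := F) m
  let s := Function.surjInv hs
  have hs' : ∀ g, σ (s g) = g := Function.surjInv_eq hs
  let tt : F → F → Γ := fun a b => s (TS m a b)
  let ee : Fˣ → Γ := fun k => s (hS m k)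
  have htt : ∀ a b, σ (tt a b) = TS m a b := fun a b => hs' _
  have hee : ∀ k, σ (ee k) = hS m k := fun k => hs' _
  have hcen : ∀ u v : Γ, σ u * σ v = σ v * σ u → ⁅u, v⁆ ∈ Subgroup.center Γ := by
    intro u v h
    apply hc
    rw [MonoidHom.mem_ker, map_commutatorElement, commutatorElement_eq_one_iff_mul_comm]
    exact h
  have hL : ∀ u u' u'' v : Γ, σ u'' = σ u * σ u' → u * ⁅u', v⁆ = ⁅u', v⁆ * u →
      ⁅u', v⁆ * ⁅u, v⁆ = ⁅u, v⁆ * ⁅u', v⁆ → ⁅u'', v⁆ = ⁅u, v⁆ * ⁅u', v⁆ := by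
    intro u u' u'' v h h1 h2
    rw [comm_congr σ hc (u := u'') (u' := u * u') (v := v) (v' := v) (by rw [h, map_mul]) rfl,
      comm_mul_left, h1, mul_inv_cancel_right, h2]
  have hR : ∀ u v v' v'' : Γ, σ v'' = σ v * σ v' → v * ⁅u, v'⁆ = ⁅u, v'⁆ * v →
      ⁅u, v''⁆ = ⁅u, v⁆ * ⁅u, v'⁆ := by
    intro u v v' v'' h h1
    rw [comm_congr σ hc (u := u) (u' := u) (v := v'') (v' := v * v') rfl (by rw [h, map_mul]),
      comm_mul_right, h1, mul_inv_cancel_right]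
  have hC : ∀ x u v u1 v1 : Γ, σ u1 = σ x * σ u * (σ x)⁻¹ → σ v1 = σ x * σ v * (σ x)⁻¹ →
      ⁅u1, v1⁆ = x * ⁅u, v⁆ * x⁻¹ := by
    intro x u v u1 v1 hu hv
    rw [conj_comm]
    exact comm_congr σ hc (by simp [hu]) (by simp [hv])
  have hconjc : ∀ x c : Γ, c ∈ Subgroup.center Γ → x * c * x⁻¹ = c := by
    intro x c hcc
    rw [Subgroup.mem_center_iff.1 hcc x, mul_inv_cancel_right]
  have hZQ : Zsub F m ≤ Qsub F m := by
    rintro _ ⟨y, rfl⟩
    exact TS_mem m 0 y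
  -- Step 3
  have hγZ : ∀ u v : Γ, σ u ∈ Qsub F m → σ v ∈ Qsub F m → σ ⁅u, v⁆ ∈ Zsub F m := by
    rintro u v ⟨a, b, hu⟩ ⟨a', b', hv⟩
    rw [map_commutatorElement, hu, hv, TS_commutator]
    exact ⟨_, rfl⟩
  have httQ : ∀ a b, σ (tt a b) ∈ Qsub F m := fun a b => by rw [htt]; exact TS_mem m a b
  have hLq : ∀ a b a' b' a'' b'' c d, TS m a'' b'' = TS m a b * TS m a' b' →
      ⁅tt a'' b'', tt c d⁆ = ⁅tt a b, tt c d⁆ * ⁅tt a' b', tt c d⁆ := by
    intro a b a' b' a'' b'' c d h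
    exact hL _ _ _ _ (by rw [htt, htt, htt, h])
      (hQZ _ _ (httQ a b) (hγZ _ _ (httQ a' b') (httQ c d)))
      (hQZ _ _ (hZQ (hγZ _ _ (httQ a' b') (httQ c d))) (hγZ _ _ (httQ a b) (httQ c d)))
  have hRq : ∀ a b c d c' d' c'' d'', TS m c'' d'' = TS m c d * TS m c' d' →
      ⁅tt a b, tt c'' d''⁆ = ⁅tt a b, tt c d⁆ * ⁅tt a b, tt c' d'⁆ := by
    intro a b c d c' d' c'' d'' h
    exact hR _ _ _ _ (by rw [htt, htt, htt, h])
      (hQZ _ _ (httQ c d) (hγZ _ _ (httQ a b) (httQ c' d')))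
  have hz1 : ∀ a b y, ⁅tt a b, tt 0 y⁆ = 1 := fun a b y => by
    rw [commutatorElement_eq_one_iff_mul_comm]
    exact hQZ _ _ (httQ a b) (by rw [htt]; exact ⟨y, rfl⟩)
  have hz2 : ∀ a b y, ⁅tt 0 y, tt a b⁆ = 1 := fun a b y => by
    rw [← commutatorElement_inv, hz1, inv_one]
  have hindq : ∀ a b c d, ⁅tt a b, tt c d⁆ = ⁅tt a 0, tt c 0⁆ := by
    intro a b c d
    rw [hLq a 0 0 b a b c d (by rw [TS_mul_zero, zero_add]), hz2, mul_one,
      hRq a 0 c 0 0 d c d (by rw [TS_mul_zero, zero_add]), hz1, mul_one]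
  let Zh : Subgroup Γ := (Zsub F m).comap σ
  have hZc : IsMulCommutative Zh := ⟨⟨fun x y => Subtype.ext (hQZ _ _ (hZQ x.2) y.2)⟩⟩
  let γ : F → F → Zh := fun a c => ⟨⁅tt a 0, tt c 0⁆, hγZ _ _ (httQ a 0) (httQ c 0)⟩
  have hnorm : ∀ (k : Fˣ) (x : Γ), x ∈ Zh → ee k * x * (ee k)⁻¹ ∈ Zh := by
    rintro k x ⟨y, hy⟩
    show σ _ ∈ Zsub F m
    rw [map_mul, map_mul, map_inv, hy, hee, hS_conj_TS, mul_zero]
    exact ⟨_, rfl⟩
  let φ : Fˣ → (Zh →* Zh) := fun k =>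
    { toFun := fun x => ⟨ee k * x * (ee k)⁻¹, hnorm k x x.2⟩
      map_one' := by apply Subtype.ext; simp
      map_mul' := fun x y => by apply Subtype.ext; simp }
  have hle : ⁅(Qsub F m).comap σ, (Qsub F m).comap σ⁆
      ≤ (Subgroup.closure (Set.range (fun p : F × F => γ p.1 p.2))).map Zh.subtype := by
    rw [Subgroup.commutator_le]
    rintro u ⟨a, b, hu⟩ v ⟨c, d, hv⟩
    refine ⟨γ a c, Subgroup.subset_closure ⟨(a, c), rfl⟩, ?_⟩
    show ⁅tt a 0, tt c 0⁆ = ⁅u, v⁆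
    rw [← hindq a b c d]
    exact comm_congr σ hc (by rw [hu, htt]) (by rw [hv, htt])
  obtain ⟨x, hx, hxz⟩ := hle hz'
  have hxz' : (x : Γ) = z := hxz
  have key := pow_card_eq_one_of_mem_closure m φ γ
    (by
      intro a a' c
      apply Subtype.ext
      show ⁅tt (a + a') 0, tt c 0⁆ = ⁅tt a 0, tt c 0⁆ * ⁅tt a' 0, tt c 0⁆
      rw [← hindq (a + a') (sig m a * a') c 0]
      exact hLq a 0 a' 0 _ _ c 0 (by rw [TS_mul]; simp))
    (by
      intro a c c'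
      apply Subtype.ext
      show ⁅tt a 0, tt (c + c') 0⁆ = ⁅tt a 0, tt c 0⁆ * ⁅tt a 0, tt c' 0⁆
      rw [← hindq a 0 (c + c') (sig m c * c')]
      exact hRq a 0 c 0 c' 0 _ _ (by rw [TS_mul]; simp))
    (by
      intro k a c
      apply Subtype.ext
      show ee k * ⁅tt a 0, tt c 0⁆ * (ee k)⁻¹ = ⁅tt (k * a) 0, tt (k * c) 0⁆
      rw [hC (ee k) (tt a 0) (tt c 0) (tt (k * a) 0) (tt (k * c) 0)
        (by rw [htt, htt, hee, hS_conj_TS, mul_zero])
        (by rw [htt, htt, hee, hS_conj_TS, mul_zero])])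
    x hx
    (by
      intro k
      apply Subtype.ext
      show ee k * x * (ee k)⁻¹ = x
      rw [hxz']
      exact hconjc _ _ (hc hz))
  have := congrArg Subtype.val key
  rw [Subgroup.coe_pow, hxz'] at this
  exact this

theorem ker_eq_bot_of_comm (m : ℕ) [SzField F m] {Γ : Type*} [Group Γ] [Finite Γ]
    (σ : Γ →* Cfsg.Sz F m) (hs : Function.Surjective σ) (hc : σ.ker ≤ Subgroup.center Γ)
    (hd : σ.ker ≤ commutator Γ)
    (hQZ : ∀ u v : Γ, σ u ∈ Qsub F m → σ v ∈ Zsub F m → u * v = v * u) : σ.ker = ⊥ := by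
  have : Finite (Cfsg.Sz F m) := Finite.of_surjective σ hs
  rw [Subgroup.eq_bot_iff_forall]
  intro z hz
  have h2 : z ^ ((Qsub F m).index * (Fintype.card F - 1)) = 1 := by
    have h := pow_index_mem_commutator ((Qsub F m).comap σ) (hc hz) (hd hz)
    rw [Subgroup.index_comap_of_surjective _ hs] at h
    have := pow_eq_one_of_mem_ker_comm m σ hs hc hQZ (Subgroup.pow_mem _ hz _) h
    rwa [← pow_mul] at this
  have hodd : ∀ (p : ℕ) [Fact p.Prime], p ≠ 2 → ∀ P : Sylow p (Cfsg.Sz F m),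
      z ^ (P : Subgroup (Cfsg.Sz F m)).index = 1 := by
    intro p _ hp P
    have h := pow_index_mem_commutator ((P : Subgroup (Cfsg.Sz F m)).comap σ) (hc hz) (hd hz)
    rw [Subgroup.index_comap_of_surjective _ hs] at h
    have hcyc : IsCyclic (P : Subgroup (Cfsg.Sz F m)) := sylow_odd_cyclic m hp P
    have hcomm := MonoidHom.isMulCommutative_of_isCyclic_of_ker_le_center
      (σ.subgroupComap (P : Subgroup (Cfsg.Sz F m))) (by
        intro x hx
        rw [Subgroup.mem_center_iff]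
        intro y
        apply Subtype.ext
        have hx1 : (x : Γ) ∈ σ.ker := by
          rw [MonoidHom.mem_ker] at hx ⊢
          exact congrArg Subtype.val hx
        exact Subgroup.mem_center_iff.1 (hc hx1) y)
    have hbot : ⁅(P : Subgroup (Cfsg.Sz F m)).comap σ, (P : Subgroup (Cfsg.Sz F m)).comap σ⁆ = ⊥ := by
      rw [Subgroup.commutator_eq_bot_iff_le_centralizer]
      intro u hu
      rw [Subgroup.mem_centralizer_iff]
      intro v hv
      exact congrArg Subtype.val (hcomm.is_comm.comm ⟨v, hv⟩ ⟨u, hu⟩)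
    rw [hbot] at h
    exact Subgroup.mem_bot.1 h
  by_contra hz1
  have hord : orderOf z ≠ 1 := fun h => hz1 (orderOf_eq_one_iff.1 h)
  obtain ⟨r, hr, hrz⟩ := Nat.exists_prime_and_dvd hord
  have : Fact r.Prime := ⟨hr⟩
  by_cases hr2 : r = 2
  · subst hr2
    have h3 := hrz.trans (orderOf_dvd_of_pow_eq_one h2)
    rcases (Nat.Prime.dvd_mul hr).1 h3 with h4 | h4
    · have := (QSylow F m).not_dvd_index
      rw [coe_QSylow] at this
      exact this h4
    · rw [SzField.card (F := F) (m := m), pow_succ] at h4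
      have : 0 < 2 ^ (2 * m) := by positivity
      omega
  · obtain ⟨P⟩ : Nonempty (Sylow r (Cfsg.Sz F m)) := inferInstance
    exact P.not_dvd_index (hrz.trans (orderOf_dvd_of_pow_eq_one (hodd r hr2 P)))

end Cfsg.Agent.Lib.Helper6.Sz8
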